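import Mathlib
import Cfsg.Agent.Lib.OddChar.CohSameDeg

/-!
# Sylow subgroups all of whose nonidentity elements have the same centralizer: set-up.
-/

set_option autoImplicit false

open scoped ComplexConjugate

namespace Cfsg.Agent.Lib.StarSylow

open Cfsg (classInner IsCharacter IsIrrCharacter IsClassFunction IsGeneralizedCharacter
  IrrCharacter indFun extendByZero charDegree)
open Cfsg.Agent.Lib.Char Cfsg.Agent.Lib.Degree Cfsg.Agent.Lib.OddChar

universe u

variable {G : Type u} [Group G]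

/-- The data of the situation: `C` centralizes `Q`, `c ↦ c ^ m` maps `C` to `Q`, every linear
character of `Q` extends to `C` trivially on the elements with `c ^ m = 1`. -/
structure IsStar (Q C : Subgroup G) (m : ℕ) : Prop where
  hC : C = Subgroup.centralizer (Q : Set G)
  hle : Q ≤ C
  pow_mem : ∀ c ∈ C, c ^ m ∈ Q
  cent : ∀ y ∈ Q, y ≠ 1 → ∀ g : G, g * y = y * g → g ∈ C
  ti : ∀ g : G, ∀ y ∈ Q, y ≠ 1 → g⁻¹ * y * g ∈ Q → g ∈ Subgroup.normalizer (Q : Set G)
  ext : ∀ lam : Q →* ℂˣ, ∃ lt : C →* ℂˣ, (∀ y : Q, lt (Subgroup.inclusion hle y) = lam y) ∧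
    ∀ c : C, (c : G) ^ m = 1 → lt c = 1

namespace IsStar

variable {Q C : Subgroup G} {m : ℕ} (h : IsStar Q C m)

include h

theorem comm {y c : G} (hy : y ∈ Q) (hc : c ∈ C) : y * c = c * y := by
  rw [h.hC, Subgroup.mem_centralizer_iff] at hc
  exact hc y hy

theorem comm_Q (a b : Q) : a * b = b * a := by
  apply Subtype.ext
  exact h.comm a.2 (h.hle b.2)

theorem conj_mem {g c : G} (hg : g ∈ Subgroup.normalizer (Q : Set G)) (hc : c ∈ C) :
    g⁻¹ * c * g ∈ C := by
  rw [h.hC, Subgroup.mem_centralizer_iff]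
  intro y hy
  have h1 : g * y * g⁻¹ ∈ Q := (Subgroup.mem_set_normalizer_iff.mp hg y).mp hy
  have h2 := h.comm h1 hc
  have h3 : y * (g⁻¹ * c * g) = g⁻¹ * ((g * y * g⁻¹) * c) * g := by group
  have h4 : g⁻¹ * c * g * y = g⁻¹ * (c * (g * y * g⁻¹)) * g := by group
  rw [h3, h4, h2]

omit h in
theorem conjQ_mem {g y : G} (hg : g ∈ Subgroup.normalizer (Q : Set G)) (hy : y ∈ Q) :
    g⁻¹ * y * g ∈ Q := by
  have h1 := (Subgroup.mem_set_normalizer_iff.mp (inv_mem hg) y).mp hy
  simpa using h1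

theorem C_le_N : C ≤ Subgroup.normalizer (Q : Set G) := by
  intro c hc
  refine Subgroup.mem_set_normalizer_iff.mpr fun y => ⟨fun hy => ?_, fun hy => ?_⟩
  · have h1 := h.comm hy hc
    have h2 : c * y * c⁻¹ = y := by rw [← h1]; group
    rw [h2]
    exact hy
  · have h1 := h.comm hy hc
    have h2 : y = c * y * c⁻¹ := by
      have h3 : (c * y * c⁻¹) * c = c * y := by group
      rw [h3] at h1
      exact mul_left_cancel h1
    rw [h2]
    exact hy

/-- Conjugation by an element of the normalizer, on `C`. -/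
def cjC (g : Subgroup.normalizer (Q : Set G)) : C ≃* C where
  toFun c := ⟨(g : G)⁻¹ * c * g, h.conj_mem g.2 c.2⟩
  invFun c := ⟨(g : G) * c * (g : G)⁻¹, by simpa using h.conj_mem (inv_mem g.2) c.2⟩
  left_inv c := by
    apply Subtype.ext
    simp [mul_assoc]
  right_inv c := by
    apply Subtype.ext
    simp [mul_assoc]
  map_mul' a b := by
    apply Subtype.ext
    simp [mul_assoc]

omit h in
/-- Conjugation by an element of the normalizer, on `Q`. -/
def cjQ (g : Subgroup.normalizer (Q : Set G)) : Q ≃* Q where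
  toFun c := ⟨(g : G)⁻¹ * c * g, conjQ_mem g.2 c.2⟩
  invFun c := ⟨(g : G) * c * (g : G)⁻¹, by simpa using conjQ_mem (inv_mem g.2) c.2⟩
  left_inv c := by
    apply Subtype.ext
    simp [mul_assoc]
  right_inv c := by
    apply Subtype.ext
    simp [mul_assoc]
  map_mul' a b := by
    apply Subtype.ext
    simp [mul_assoc]

theorem cjC_coe (g : Subgroup.normalizer (Q : Set G)) (c : C) :
    ((h.cjC g c : C) : G) = (g : G)⁻¹ * c * g := rfl

omit h in
theorem cjQ_coe (g : Subgroup.normalizer (Q : Set G)) (c : Q) :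
    ((cjQ g c : Q) : G) = (g : G)⁻¹ * c * g := rfl

theorem cjC_mul (a b : Subgroup.normalizer (Q : Set G)) (c : C) :
    h.cjC (a * b) c = h.cjC b (h.cjC a c) := by
  apply Subtype.ext
  simp [cjC_coe, mul_assoc]

omit h in
theorem cjQ_mul (a b : Subgroup.normalizer (Q : Set G)) (c : Q) :
    cjQ (a * b) c = cjQ b (cjQ a c) := by
  apply Subtype.ext
  simp [cjQ_coe, mul_assoc]

theorem cjC_incl (g : Subgroup.normalizer (Q : Set G)) (y : Q) :
    h.cjC g (Subgroup.inclusion h.hle y) = Subgroup.inclusion h.hle (cjQ g y) := rfl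

/-- `μ` has central type `lam`. -/
def HasType (μ : C → ℂ) (lam : Q →* ℂˣ) : Prop :=
  ∀ (y : Q) (c : C), μ (Subgroup.inclusion h.hle y * c) = (lam y : ℂ) * μ c

theorem central_type {μ : C → ℂ} (hμ : IsIrrCharacter C μ) : ∃ lam, h.HasType μ lam := by
  obtain ⟨n, ρ, hρ, rfl⟩ := hμ
  have hcomm : ∀ (y : Q) (g : C), Subgroup.inclusion h.hle y * g = g * Subgroup.inclusion h.hle y := by
    intro y g
    apply Subtype.ext
    exact h.comm y.2 g.2
  have hsc : ∀ y : Q, ∃ a : ℂ, ρ (Subgroup.inclusion h.hle y) = a • (1 : Module.End ℂ (Fin n → ℂ)) := by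
    intro y
    refine schur_scalar ρ hρ _ fun g v => ?_
    rw [← Module.End.mul_apply, ← Module.End.mul_apply, ← map_mul, ← map_mul, hcomm]
  choose a ha using hsc
  have hnt := nontrivial_of_irr hρ
  have hinj : ∀ s t : ℂ, s • (1 : Module.End ℂ (Fin n → ℂ)) = t • 1 → s = t := by
    intro s t hst
    obtain ⟨v, hv⟩ := exists_ne (0 : Fin n → ℂ)
    have h1 := congrArg (fun T : Module.End ℂ (Fin n → ℂ) => T v) hst
    simp only [LinearMap.smul_apply, Module.End.one_apply] at h1
    exact smul_left_injective ℂ hv h1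
  let f : Q →* ℂ :=
    { toFun := a
      map_one' := by
        apply hinj
        rw [← ha, one_smul]
        simp
      map_mul' := fun x y => by
        apply hinj
        rw [← ha, map_mul, map_mul, ha, ha, smul_mul_smul_comm, one_mul] }
  refine ⟨f.toHomUnits, fun y c => ?_⟩
  rw [MonoidHom.coe_toHomUnits]
  show Representation.character ρ _ = a y * Representation.character ρ c
  simp only [Representation.character]
  rw [map_mul, ha, smul_mul_assoc, one_mul, map_smul, smul_eq_mul]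

theorem type_apply {μ : C → ℂ} {lam : Q →* ℂˣ} (ht : h.HasType μ lam) (y : Q) :
    μ (Subgroup.inclusion h.hle y) = (lam y : ℂ) * μ 1 := by
  have h1 := ht y 1
  rwa [mul_one] at h1

theorem type_unique {μ : C → ℂ} {a b : Q →* ℂˣ} (ha : h.HasType μ a) (hb : h.HasType μ b)
    (h1 : μ 1 ≠ 0) : a = b := by
  ext y
  have h2 := h.type_apply ha y
  rw [h.type_apply hb y] at h2
  exact (mul_right_cancel₀ h1 h2).symm

theorem type_conj {μ : C → ℂ} {lam : Q →* ℂˣ} (ht : h.HasType μ lam)
    (g : Subgroup.normalizer (Q : Set G)) :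
    h.HasType (μ ∘ h.cjC g) (lam.comp (cjQ g).toMonoidHom) := by
  intro y c
  simp only [Function.comp, map_mul, MonoidHom.comp_apply, h.cjC_incl]
  exact ht _ _

theorem eq_one_of_comp_eq [Finite Q] {g : Subgroup.normalizer (Q : Set G)} (hg : (g : G) ∉ C)
    {lam : Q →* ℂˣ} (hl : lam.comp (cjQ g).toMonoidHom = lam) : lam = 1 := by
  let t : Q → Q := fun y => cjQ g y * y⁻¹
  have hinj : Function.Injective t := by
    intro a b hab
    have h1 : cjQ g (a * b⁻¹) = a * b⁻¹ := by
      have h2 : cjQ g a * a⁻¹ = cjQ g b * b⁻¹ := hab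
      rw [map_mul, map_inv]
      have h3 : cjQ g a = cjQ g b * b⁻¹ * a := by rw [← h2]; group
      rw [h3]
      have h4 := h.comm_Q b⁻¹ a
      calc cjQ g b * b⁻¹ * a * (cjQ g b)⁻¹
          = cjQ g b * (b⁻¹ * a) * (cjQ g b)⁻¹ := by group
        _ = (b⁻¹ * a) * (cjQ g b * (cjQ g b)⁻¹) := by
            rw [h.comm_Q (cjQ g b) (b⁻¹ * a)]; group
        _ = a * b⁻¹ := by rw [mul_inv_cancel, mul_one, h4]
    by_contra hne
    have hz : ((a * b⁻¹ : Q) : G) ≠ 1 := by
      intro h0
      apply hne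
      have h2 : a * b⁻¹ = 1 := Subtype.ext h0
      exact mul_inv_eq_one.mp h2
    apply hg
    refine h.cent _ (a * b⁻¹).2 hz _ ?_
    have h2 := congrArg (Subtype.val) h1
    rw [cjQ_coe] at h2
    calc (g : G) * ((a * b⁻¹ : Q) : G) = (g : G) * ((g : G)⁻¹ * ((a * b⁻¹ : Q) : G) * g) := by rw [h2]
      _ = ((a * b⁻¹ : Q) : G) * g := by group
  have hsurj : Function.Surjective t := Finite.injective_iff_surjective.mp hinj
  ext y
  obtain ⟨w, rfl⟩ := hsurj y
  have h1 : lam (cjQ g w) = lam w := congrFun (congrArg DFunLike.coe hl) w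
  simp only [t, map_mul, map_inv, h1, MonoidHom.one_apply]
  simp

theorem mem_C_of_type_fix [Finite Q] {μ : C → ℂ} {lam : Q →* ℂˣ} (ht : h.HasType μ lam)
    (h1 : μ 1 ≠ 0) (hlam : lam ≠ 1) {g : Subgroup.normalizer (Q : Set G)} (hfix : μ ∘ h.cjC g = μ) :
    (g : G) ∈ C := by
  by_contra hg
  have h2 := h.type_conj ht g
  rw [hfix] at h2
  exact hlam (h.eq_one_of_comp_eq hg (h.type_unique h2 ht h1))

/-- On `C`, conjugation by an element of `C` fixes class functions. -/
theorem comp_cjC_of_mem {μ : C → ℂ} (hμ : IsClassFunction C μ)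
    (g : Subgroup.normalizer (Q : Set G)) (hg : (g : G) ∈ C) : μ ∘ h.cjC g = μ := by
  funext c
  have h1 := hμ c ⟨(g : G)⁻¹, inv_mem hg⟩
  simp only [Function.comp]
  rw [← h1]
  congr 1
  apply Subtype.ext
  simp [cjC_coe, mul_assoc]

end IsStar

end Cfsg.Agent.Lib.StarSylow
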