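import Mathlib
import Cfsg.Agent.Lib.StarSylow.Setup

/-!
# Inner products of functions induced from the centralizer of the Sylow subgroup.
-/

set_option autoImplicit false

open scoped ComplexConjugate

namespace Cfsg.Agent.Lib.StarSylow

open Cfsg (classInner IsCharacter IsIrrCharacter IsClassFunction IsGeneralizedCharacter
  IrrCharacter indFun extendByZero charDegree)
open Cfsg.Agent.Lib.Char Cfsg.Agent.Lib.Degree Cfsg.Agent.Lib.OddChar

universe u

variable {G : Type u} [Group G] [Fintype G] {Q C : Subgroup G} {m : ℕ} (h : IsStar Q C m)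

namespace IsStar

include h

/-- An element outside the kernel of the power map is only conjugated into `C` by the normalizer. -/
theorem conj_not_mem {c : C} (hc : (c : G) ^ m ≠ 1) {x : G}
    (hx : x ∉ Subgroup.normalizer (Q : Set G)) : x⁻¹ * c * x ∉ C := by
  intro hmem
  apply hx
  refine h.ti x _ (h.pow_mem _ c.2) hc ?_
  have h1 := h.pow_mem _ hmem
  have h2 : (x⁻¹ * (c : G) * x) ^ m = x⁻¹ * (c : G) ^ m * x := by
    have h3 := conj_pow (a := x⁻¹) (b := (c : G)) (i := m)
    simpa using h3
  rwa [h2] at h1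

variable [Fintype C] [Fintype (Subgroup.normalizer (Q : Set G))]

/-- The normalized sum over the normalizer of the inner products with the conjugates. -/
noncomputable def R (f g : C → ℂ) : ℂ :=
  (Nat.card C : ℂ)⁻¹ * ∑ x : Subgroup.normalizer (Q : Set G), classInner f (g ∘ h.cjC x)

theorem indFun_eq_sum (g : C → ℂ) {c : C} (hc : (c : G) ^ m ≠ 1) :
    indFun C g c = (Nat.card C : ℂ)⁻¹ * ∑ x : Subgroup.normalizer (Q : Set G), g (h.cjC x c) := by
  classical
  rw [indFun_apply]
  congr 1
  have h1 : ∑ x : G, extendByZero C g (x⁻¹ * c * x) =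
      ∑ x ∈ Finset.univ.filter (fun x : G => x ∈ Subgroup.normalizer (Q : Set G)),
        extendByZero C g (x⁻¹ * c * x) := by
    symm
    refine Finset.sum_subset (Finset.subset_univ _) fun x _ hx => ?_
    have h2 : x ∉ Subgroup.normalizer (Q : Set G) := by simpa using hx
    exact extendByZero_of_not_mem C g (h.conj_not_mem hc h2)
  have h2 := Finset.sum_subtype (p := fun x : G => x ∈ Subgroup.normalizer (Q : Set G))
    (F := inferInstanceAs (Fintype (Subgroup.normalizer (Q : Set G))))
    (Finset.univ.filter (fun x : G => x ∈ Subgroup.normalizer (Q : Set G))) (fun x => by simp)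
    (fun x => extendByZero C g (x⁻¹ * c * x))
  rw [h1, h2]
  refine Finset.sum_congr rfl fun x _ => ?_
  exact extendByZero_coe C g (h.cjC x c)

/-- The inner product formula. -/
theorem inner_ind (f g : C → ℂ) (hf : ∀ c : C, (c : G) ^ m = 1 → f c = 0) :
    classInner (indFun C f) (indFun C g) = h.R f g := by
  classical
  rw [frobenius_reciprocity C f _ (indFun_isClassFunction C g), R]
  simp only [classInner_def, Function.comp]
  have h1 : ∀ c : C, f c * conj (indFun C g c) = (Nat.card C : ℂ)⁻¹ *
      ∑ x : Subgroup.normalizer (Q : Set G), f c * conj (g (h.cjC x c)) := by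
    intro c
    by_cases hc : (c : G) ^ m = 1
    · simp [hf c hc]
    · rw [h.indFun_eq_sum g hc, map_mul, map_inv₀, Complex.conj_natCast, map_sum, Finset.mul_sum,
        Finset.mul_sum, Finset.mul_sum]
      refine Finset.sum_congr rfl fun x _ => ?_
      ring
  simp only [h1]
  rw [← Finset.mul_sum, Finset.sum_comm, Finset.mul_sum, Finset.mul_sum]

theorem R_sub_left (f f' g : C → ℂ) : h.R (f - f') g = h.R f g - h.R f' g := by
  simp only [R, classInner_sub_left, Finset.sum_sub_distrib, mul_sub]

theorem R_sub_right (f g g' : C → ℂ) : h.R f (g - g') = h.R f g - h.R f g' := by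
  have h1 : ∀ x, (g - g') ∘ h.cjC x = (g ∘ h.cjC x) - (g' ∘ h.cjC x) := fun x => rfl
  simp only [R, h1, classInner_sub_right, Finset.sum_sub_distrib, mul_sub]

/-- Formula for the inner product of two induced differences. -/
theorem inner_D (a b c d : C → ℂ) (hf : ∀ x : C, (x : G) ^ m = 1 → a x = b x) :
    classInner (indFun C (a - b)) (indFun C (c - d)) =
      h.R a c - h.R a d - h.R b c + h.R b d := by
  rw [h.inner_ind _ _ fun x hx => by simp [hf x hx], R_sub_left, R_sub_right, R_sub_right]
  ring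

theorem R_conj_left (μ ν : C → ℂ) (g₀ : Subgroup.normalizer (Q : Set G)) :
    h.R (μ ∘ h.cjC g₀) ν = h.R μ ν := by
  simp only [R]
  congr 1
  rw [← Equiv.sum_comp (Equiv.mulLeft g₀)]
  refine Finset.sum_congr rfl fun x _ => ?_
  have h1 : ν ∘ h.cjC ((Equiv.mulLeft g₀) x) = (ν ∘ h.cjC x) ∘ h.cjC g₀ := by
    funext c
    simp only [Function.comp, Equiv.coe_mulLeft, cjC_mul]
  rw [h1]
  exact classInner_comp_equiv (h.cjC g₀) μ (ν ∘ h.cjC x)

theorem isIrr_comp {μ : C → ℂ} (hμ : IsIrrCharacter C μ) (g : Subgroup.normalizer (Q : Set G)) :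
    IsIrrCharacter C (μ ∘ h.cjC g) := isIrr_comp_equiv (h.cjC g) hμ

theorem R_self {μ : C → ℂ} (hμ : IsIrrCharacter C μ) {lam : Q →* ℂˣ} (ht : h.HasType μ lam)
    (hlam : lam ≠ 1) : h.R μ μ = 1 := by
  classical
  have h1 : ∀ x : Subgroup.normalizer (Q : Set G), classInner μ (μ ∘ h.cjC x) =
      if (x : G) ∈ C then 1 else 0 := by
    intro x
    split_ifs with hx
    · rw [h.comp_cjC_of_mem (IsCharacter.isClassFunction (IsIrrCharacter.isCharacter hμ)) x hx]
      exact classInner_irr_self hμ
    · refine classInner_irr_of_ne hμ (h.isIrr_comp hμ x) fun h2 => hx ?_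
      exact h.mem_C_of_type_fix ht (map_one_ne_zero_of_irr hμ) hlam h2.symm
  simp only [R, h1]
  rw [Finset.sum_boole]
  have h2 : (Finset.univ.filter (fun x : Subgroup.normalizer (Q : Set G) => (x : G) ∈ C)).card =
      Nat.card C := by
    rw [← Fintype.card_subtype, Fintype.card_eq_nat_card]
    refine Nat.card_congr ⟨fun x => ⟨x.1.1, x.2⟩, fun c => ⟨⟨c, h.C_le_N c.2⟩, c.2⟩, fun x => rfl, fun c => rfl⟩
  rw [h2]
  exact inv_mul_cancel₀ (card_subgroup_ne_zero C)

theorem R_of_rel {μ ν : C → ℂ} (hν : IsIrrCharacter C ν) {lam : Q →* ℂˣ} (ht : h.HasType ν lam)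
    (hlam : lam ≠ 1) {g₀ : Subgroup.normalizer (Q : Set G)} (hg : μ = ν ∘ h.cjC g₀) : h.R μ ν = 1 := by
  subst hg
  rw [h.R_conj_left, h.R_self hν ht hlam]

theorem R_of_not_rel {μ ν : C → ℂ} (hμ : IsIrrCharacter C μ) (hν : IsIrrCharacter C ν)
    (hg : ∀ g : Subgroup.normalizer (Q : Set G), μ ≠ ν ∘ h.cjC g) : h.R μ ν = 0 := by
  simp only [R]
  rw [Finset.sum_eq_zero, mul_zero]
  intro x _
  exact classInner_irr_of_ne hμ (h.isIrr_comp hν x) (hg x)

/-- `Z` and `R` for the principal character. -/
theorem ne_one_of_type {μ : C → ℂ} {lam : Q →* ℂˣ} (ht : h.HasType μ lam) (hlam : lam ≠ 1) :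
    μ ≠ fun _ => (1 : ℂ) := by
  rintro rfl
  apply hlam
  ext y
  have h1 := ht y 1
  simpa using h1.symm

theorem R_right_one {μ : C → ℂ} (hμ : IsIrrCharacter C μ) {lam : Q →* ℂˣ} (ht : h.HasType μ lam)
    (hlam : lam ≠ 1) : h.R μ (fun _ => (1 : ℂ)) = 0 := by
  simp only [R]
  rw [Finset.sum_eq_zero, mul_zero]
  intro x _
  exact classInner_irr_of_ne hμ isIrrCharacter_one (h.ne_one_of_type ht hlam)

theorem R_left_one {μ : C → ℂ} (hμ : IsIrrCharacter C μ) {lam : Q →* ℂˣ} (ht : h.HasType μ lam)
    (hlam : lam ≠ 1) : h.R (fun _ => (1 : ℂ)) μ = 0 := by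
  simp only [R]
  rw [Finset.sum_eq_zero, mul_zero]
  intro x _
  refine classInner_irr_of_ne isIrrCharacter_one (h.isIrr_comp hμ x) fun h1 => ?_
  have hne : lam.comp (cjQ x).toMonoidHom ≠ 1 := by
    intro h2
    apply hlam
    ext y
    obtain ⟨z, rfl⟩ := (cjQ x).surjective y
    have h3 := congrFun (congrArg DFunLike.coe h2) z
    simpa using h3
  exact h.ne_one_of_type (h.type_conj ht x) hne h1.symm

omit [Fintype C] [Fintype (Subgroup.normalizer (Q : Set G))] in
/-- The relevant index. -/
theorem card_N (_ : True) : Nat.card (Subgroup.normalizer (Q : Set G)) =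
    Nat.card C * (C.subgroupOf (Subgroup.normalizer (Q : Set G))).index := by
  have h1 := (C.subgroupOf (Subgroup.normalizer (Q : Set G))).card_mul_index
  rw [← h1]
  congr 1
  exact Nat.card_congr (Subgroup.subgroupOfEquivOfLe h.C_le_N).toEquiv

theorem R_one_one : h.R (fun _ => (1 : ℂ)) (fun _ => (1 : ℂ)) =
    ((C.subgroupOf (Subgroup.normalizer (Q : Set G))).index : ℂ) := by
  have h1 : ∀ x : Subgroup.normalizer (Q : Set G),
      classInner (fun _ : C => (1 : ℂ)) ((fun _ => (1 : ℂ)) ∘ h.cjC x) = 1 := by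
    intro x
    exact classInner_irr_self isIrrCharacter_one
  simp only [R, h1]
  simp only [Finset.sum_const, Finset.card_univ, nsmul_eq_mul, mul_one, Fintype.card_eq_nat_card]
  rw [h.card_N trivial]
  push_cast
  rw [← mul_assoc, inv_mul_cancel₀ (card_subgroup_ne_zero C), one_mul]

omit [Fintype G] [Fintype C] [Fintype (Subgroup.normalizer (Q : Set G))] in
/-- Multiplicities are constant on the conjugates. -/
theorem res_comp {ψ : G → ℂ} (hψ : IsClassFunction G ψ) (g : Subgroup.normalizer (Q : Set G)) :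
    (fun c : C => ψ c) ∘ h.cjC g = fun c : C => ψ c := by
  funext c
  simp only [Function.comp, h.cjC_coe]
  have h1 := hψ c (g : G)⁻¹
  simpa using h1

theorem inner_res_comp {ψ : G → ℂ} (hψ : IsClassFunction G ψ) (ν : C → ℂ)
    (g : Subgroup.normalizer (Q : Set G)) :
    classInner (fun c : C => ψ c) (ν ∘ h.cjC g) = classInner (fun c : C => ψ c) ν := by
  conv_lhs => rw [← h.res_comp hψ g]
  exact classInner_comp_equiv (h.cjC g) (fun c : C => ψ c) ν

end IsStar

section Orbit

variable [Fintype (Q →* ℂˣ)]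

open Classical in
/-- The orbit of a linear character under the normalizer. -/
noncomputable def orb (lam : Q →* ℂˣ) : Finset (Q →* ℂˣ) :=
  Finset.univ.filter fun l => ∃ g : Subgroup.normalizer (Q : Set G), l = lam.comp (IsStar.cjQ g).toMonoidHom

theorem mem_orb {lam l : Q →* ℂˣ} : l ∈ orb lam ↔
    ∃ g : Subgroup.normalizer (Q : Set G), l = lam.comp (IsStar.cjQ g).toMonoidHom := by
  unfold orb
  simp only [Finset.mem_filter, Finset.mem_univ, true_and]

namespace IsStar

include h

omit [Fintype G] [Fintype (Q →* ℂˣ)] in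
theorem comp_eq_of_rel (lam : Q →* ℂˣ) {a b : Subgroup.normalizer (Q : Set G)}
    (hab : (a⁻¹ * b : Subgroup.normalizer (Q : Set G)).1 ∈ C) :
    lam.comp (cjQ a).toMonoidHom = lam.comp (cjQ b).toMonoidHom := by
  ext y
  simp only [MonoidHom.comp_apply]
  congr 2
  apply Subtype.ext
  show ((cjQ a y : Q) : G) = ((cjQ b y : Q) : G)
  rw [cjQ_coe, cjQ_coe]
  have h1 : ((a : G)⁻¹ * b) ∈ C := by simpa using hab
  have h2 := h.comm (conjQ_mem a.2 y.2) h1
  have h3 : (b : G) = a * ((a : G)⁻¹ * b) := by group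
  calc (a : G)⁻¹ * y * a = ((a : G)⁻¹ * b)⁻¹ * (((a : G)⁻¹ * y * a) * ((a : G)⁻¹ * b)) := by
        rw [h2]; group
    _ = (b : G)⁻¹ * y * b := by group

/-- Orbits have at most `e` elements. -/
theorem card_orb_le (lam : Q →* ℂˣ) :
    (orb lam).card ≤ (C.subgroupOf (Subgroup.normalizer (Q : Set G))).index := by
  classical
  let H := C.subgroupOf (Subgroup.normalizer (Q : Set G))
  haveI : Fintype (Subgroup.normalizer (Q : Set G) ⧸ H) := Fintype.ofFinite _
  let F : Subgroup.normalizer (Q : Set G) ⧸ H → (Q →* ℂˣ) :=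
    Quotient.lift (fun g => lam.comp (cjQ g).toMonoidHom) (by
      intro a b hab
      have h1 : a⁻¹ * b ∈ H := QuotientGroup.leftRel_apply.mp hab
      exact h.comp_eq_of_rel lam (Subgroup.mem_subgroupOf.mp h1))
  have h1 : orb lam ⊆ Finset.univ.image F := by
    intro l hl
    have h2 : ∃ g : Subgroup.normalizer (Q : Set G), l = lam.comp (cjQ g).toMonoidHom := mem_orb.mp hl
    obtain ⟨g, rfl⟩ := h2
    exact Finset.mem_image.mpr ⟨(QuotientGroup.mk g), Finset.mem_univ _, rfl⟩
  calc (orb lam).card ≤ (Finset.univ.image F).card := Finset.card_le_card h1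
    _ ≤ (Finset.univ : Finset (Subgroup.normalizer (Q : Set G) ⧸ H)).card := Finset.card_image_le
    _ = H.index := by
      rw [Finset.card_univ, Fintype.card_eq_nat_card]
      rfl

/-- Orbits of nontrivial characters have exactly `e` elements. -/
theorem card_orb_eq [Finite Q] {lam : Q →* ℂˣ} (hlam : lam ≠ 1) :
    (orb lam).card = (C.subgroupOf (Subgroup.normalizer (Q : Set G))).index := by
  classical
  let H := C.subgroupOf (Subgroup.normalizer (Q : Set G))
  haveI : Fintype (Subgroup.normalizer (Q : Set G) ⧸ H) := Fintype.ofFinite _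
  refine le_antisymm (h.card_orb_le lam) ?_
  let F : Subgroup.normalizer (Q : Set G) ⧸ H → (Q →* ℂˣ) :=
    Quotient.lift (fun g => lam.comp (cjQ g).toMonoidHom) (by
      intro a b hab
      have h1 : a⁻¹ * b ∈ H := QuotientGroup.leftRel_apply.mp hab
      exact h.comp_eq_of_rel lam (Subgroup.mem_subgroupOf.mp h1))
  have hinj : Function.Injective F := by
    intro a b
    induction a using QuotientGroup.induction_on with
    | H a =>
      induction b using QuotientGroup.induction_on with
      | H b =>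
        intro hab
        have hab' : lam.comp (cjQ a).toMonoidHom = lam.comp (cjQ b).toMonoidHom := hab
        refine QuotientGroup.eq.mpr (Subgroup.mem_subgroupOf.mpr ?_)
        by_contra hn
        apply hlam
        refine h.eq_one_of_comp_eq hn ?_
        ext y
        obtain ⟨z, rfl⟩ := (cjQ a).surjective y
        have h1 := congrFun (congrArg DFunLike.coe hab') z
        simp only [MonoidHom.comp_apply, MulEquiv.coe_toMonoidHom] at h1 ⊢
        rw [h1, ← cjQ_mul]
        simp
  have h1 : Finset.univ.image F ⊆ orb lam := by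
    intro l hl
    obtain ⟨q, -, rfl⟩ := Finset.mem_image.mp hl
    induction q using QuotientGroup.induction_on with
    | H g => exact mem_orb.mpr ⟨g, rfl⟩
  calc H.index = (Finset.univ : Finset (Subgroup.normalizer (Q : Set G) ⧸ H)).card := by
        rw [Finset.card_univ, Fintype.card_eq_nat_card]
        rfl
    _ = (Finset.univ.image F).card := (Finset.card_image_of_injective _ hinj).symm
    _ ≤ (orb lam).card := Finset.card_le_card h1

end IsStar

end Orbit

end Cfsg.Agent.Lib.StarSylow
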