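import Mathlib
import Cfsg.Agent.Lib.StarSylow.Inner
import Cfsg.Agent.Lib.OddChar.PartMain

/-!
# The key lemma: a constituent of small support has no trivial constituent on the centralizer.
-/

set_option autoImplicit false

open scoped ComplexConjugate

namespace Cfsg.Agent.Lib.StarSylow

open Cfsg (classInner IsCharacter IsIrrCharacter IsClassFunction IsGeneralizedCharacter
  IrrCharacter indFun extendByZero charDegree)
open Cfsg.Agent.Lib.Char Cfsg.Agent.Lib.Degree Cfsg.Agent.Lib.OddChar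

universe u

variable {G : Type u} [Group G] [Fintype G] {Q C : Subgroup G} {m : ℕ} (h : IsStar Q C m)

namespace IsStar

include h

variable [Fintype C] [Fintype (Subgroup.normalizer (Q : Set G))]

/-- Conjugate characters have the same multiplicity: different multiplicities give `R = 0`. -/
theorem R_zero_of_inner_ne {ψ : G → ℂ} (hψ : IsClassFunction G ψ) {a b : C → ℂ}
    (ha : IsIrrCharacter C a) (hb : IsIrrCharacter C b)
    (hne : classInner (fun c : C => ψ c) a ≠ classInner (fun c : C => ψ c) b) : h.R a b = 0 := by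
  refine h.R_of_not_rel ha hb fun g hg => hne ?_
  rw [hg, h.inner_res_comp hψ]

/-- The form of an induced difference of norm two. -/
theorem form {ψ : G → ℂ} (hψ : IsIrrCharacter G ψ) {a b : C → ℂ}
    (ha : IsIrrCharacter C a) (hb : IsIrrCharacter C b) {la lb : Q →* ℂˣ}
    (hta : h.HasType a la) (htb : h.HasType b lb) (hla : la ≠ 1) (hlb : lb ≠ 1)
    (hag : ∀ x : C, (x : G) ^ m = 1 → a x = b x)
    (hmb : classInner (fun c : C => ψ c) b = 0) (hma : classInner (fun c : C => ψ c) a ≠ 0) :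
    classInner (fun c : C => ψ c) a = 1 ∧ ∃ v : G → ℂ, IsIrrCharacter G v ∧ v ≠ ψ ∧
      indFun C (a - b) = ψ - v := by
  classical
  have hψc := IsCharacter.isClassFunction (IsIrrCharacter.isCharacter hψ)
  have hne : classInner (fun c : C => ψ c) a ≠ classInner (fun c : C => ψ c) b := by
    rw [hmb]; exact hma
  have hR1 := h.R_zero_of_inner_ne hψc ha hb hne
  have hR2 := h.R_zero_of_inner_ne hψc hb ha hne.symm
  have hgen : IsGeneralizedCharacter G (indFun C (a - b)) :=
    indFun_isGeneralized C (IsGeneralizedCharacter.sub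
      (IsGeneralizedCharacter.of_isCharacter (IsIrrCharacter.isCharacter ha))
      (IsGeneralizedCharacter.of_isCharacter (IsIrrCharacter.isCharacter hb)))
  have hnorm : classInner (indFun C (a - b)) (indFun C (a - b)) = 2 := by
    rw [h.inner_D a b a b hag, hR1, hR2, h.R_self ha hta hla, h.R_self hb htb hlb]
    norm_num
  have hone : indFun C (a - b) 1 = 0 := by
    rw [indFun_one]
    have h1 : (a - b) 1 = 0 := by
      simp only [Pi.sub_apply]
      rw [hag 1 (by simp)]
      ring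
    rw [h1, mul_zero]
  obtain ⟨u, v, hu, hv, huv, heq⟩ := exists_irr_sub hgen hnorm hone
  have h1 : classInner ψ (indFun C (a - b)) = classInner (fun c : C => ψ c) a := by
    rw [frobenius_reciprocity' C (a - b) ψ hψc, classInner_sub_right, hmb, sub_zero]
  obtain ⟨n, hn⟩ := classInner_isCharacter_nat (IsCharacter.restrict C (IsIrrCharacter.isCharacter hψ))
    (IsIrrCharacter.isCharacter ha)
  rw [heq, classInner_sub_right, inner_irr_ite hψ hu, inner_irr_ite hψ hv] at h1
  change _ = classInner (fun c : C => ψ c) a at h1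
  by_cases hψu : ψ = u
  · subst hψu
    rw [if_pos rfl, if_neg huv] at h1
    refine ⟨by rw [← h1]; ring, v, hv, huv.symm, heq⟩
  · exfalso
    rw [if_neg hψu] at h1
    have hn' : classInner (fun c : C => ψ c) a = (n : ℂ) := hn
    rw [hn'] at h1 hma
    have hn0 : n ≠ 0 := by
      intro h0
      apply hma
      rw [h0]
      simp
    split_ifs at h1 with h2
    · have h3 : (-1 : ℂ) = n := by rw [← h1]; ring
      have h4 := congrArg Complex.re h3
      simp at h4
      have h5 : (0 : ℝ) ≤ n := Nat.cast_nonneg n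
      linarith
    · have h3 : (n : ℂ) = 0 := by rw [← h1]; ring
      exact hn0 (by exact_mod_cast h3)

/-- Two independent forms are impossible. -/
theorem core {ψ : G → ℂ} (hψ : IsIrrCharacter G ψ) {a b a' b' : C → ℂ}
    (ha : IsIrrCharacter C a) (hb : IsIrrCharacter C b)
    (ha' : IsIrrCharacter C a') (hb' : IsIrrCharacter C b') {la lb la' lb' : Q →* ℂˣ}
    (hta : h.HasType a la) (htb : h.HasType b lb) (hta' : h.HasType a' la') (htb' : h.HasType b' lb')
    (hla : la ≠ 1) (hlb : lb ≠ 1) (hla' : la' ≠ 1) (hlb' : lb' ≠ 1)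
    (hag : ∀ x : C, (x : G) ^ m = 1 → a x = b x) (hag' : ∀ x : C, (x : G) ^ m = 1 → a' x = b' x)
    (hmb : classInner (fun c : C => ψ c) b = 0) (hma : classInner (fun c : C => ψ c) a ≠ 0)
    (hmb' : classInner (fun c : C => ψ c) b' = 0) (hma' : classInner (fun c : C => ψ c) a' ≠ 0)
    (hR : h.R a a' = 0) (hR' : h.R b b' = 0) : False := by
  classical
  have hψc := IsCharacter.isClassFunction (IsIrrCharacter.isCharacter hψ)
  obtain ⟨-, v, hv, hvψ, heq⟩ := h.form hψ ha hb hta htb hla hlb hag hmb hma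
  obtain ⟨-, v', hv', hvψ', heq'⟩ := h.form hψ ha' hb' hta' htb' hla' hlb' hag' hmb' hma'
  have h1 := h.inner_D a b a' b' hag
  rw [hR, hR', h.R_zero_of_inner_ne hψc ha hb' (by rw [hmb']; exact hma),
    h.R_zero_of_inner_ne hψc hb ha' (by rw [hmb]; exact hma'.symm), heq, heq',
    classInner_sub_left, classInner_sub_right, classInner_sub_right, classInner_irr_self hψ,
    classInner_irr_of_ne hψ hv' hvψ'.symm, classInner_irr_of_ne hv hψ hvψ, inner_irr_ite hv hv'] at h1
  have h2 := congrArg Complex.re h1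
  split_ifs at h2 <;> norm_num at h2

omit [Fintype G] [Fintype C] [Fintype (Subgroup.normalizer (Q : Set G))] in
theorem rel_mem_orb [Fintype (Q →* ℂˣ)] [Fintype G] {a b : C → ℂ} (ha : a 1 ≠ 0) {la lb : Q →* ℂˣ}
    (hta : h.HasType a la) (htb : h.HasType b lb) {g : Subgroup.normalizer (Q : Set G)}
    (hg : a = b ∘ h.cjC g) : la ∈ orb lb := by
  refine mem_orb.mpr ⟨g, ?_⟩
  have h1 := h.type_conj htb g
  rw [← hg] at h1
  exact h.type_unique hta h1 ha

omit [Fintype G] [Fintype C] [Fintype (Subgroup.normalizer (Q : Set G))] in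
theorem comp_inv (ν : C → ℂ) (g : Subgroup.normalizer (Q : Set G)) :
    ν = (ν ∘ h.cjC g) ∘ h.cjC g⁻¹ := by
  funext c
  simp only [Function.comp]
  congr 1
  rw [← h.cjC_mul]
  apply Subtype.ext
  simp [cjC_coe]

/-- The key lemma. -/
theorem key [Fintype (Q →* ℂˣ)] {ψ : G → ℂ} (hψ : IsIrrCharacter G ψ) (hψ1 : ψ ≠ fun _ => 1)
    {Λ₀ : Finset (Q →* ℂˣ)}
    (hΛ₀ : ∀ l ∈ Λ₀, l ≠ 1 ∧ ∀ μ : C → ℂ, IsIrrCharacter C μ → h.HasType μ l →
      classInner (fun c : C => ψ c) μ = 0)
    (hcard : (C.subgroupOf (Subgroup.normalizer (Q : Set G))).index + 1 ≤ Λ₀.card)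
    (hq : (C.subgroupOf (Subgroup.normalizer (Q : Set G))).index *
      (C.subgroupOf (Subgroup.normalizer (Q : Set G))).index + 1 < Fintype.card (Q →* ℂˣ))
    {μ₁ : C → ℂ} {l₁ : Q →* ℂˣ} (hμ₁ : IsIrrCharacter C μ₁) (ht₁ : h.HasType μ₁ l₁) (hl₁ : l₁ ≠ 1)
    (hm₁ : classInner (fun c : C => ψ c) μ₁ ≠ 0) :
    classInner (fun c : C => ψ c) (fun _ => (1 : ℂ)) = 0 := by
  classical
  by_contra hc
  set e := (C.subgroupOf (Subgroup.normalizer (Q : Set G))).index with he
  have hψch := IsIrrCharacter.isCharacter hψ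
  have hψc := IsCharacter.isClassFunction hψch
  have hres := IsCharacter.restrict C hψch
  choose Ex hEx1 hEx2 using h.ext
  -- the family
  let φ : (Q →* ℂˣ) → (C →* ℂˣ) := fun l => Ex l * (Ex l₁)⁻¹
  let μ : (Q →* ℂˣ) → C → ℂ := fun l c => μ₁ c * (φ l c : ℂ)
  have hφ1 : ∀ l, IsCharacter C (fun c => (φ l c : ℂ)) := fun l =>
    IsIrrCharacter.isCharacter (isIrrCharacter_of_hom (φ l))
  have hirr : ∀ l, IsIrrCharacter C (μ l) := fun l =>
    isIrr_mul_linear hμ₁ (hφ1 l) (by simp)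
  have htype : ∀ l, h.HasType (μ l) l := by
    intro l y c
    simp only [μ, φ]
    rw [ht₁ y c, map_mul, MonoidHom.mul_apply, MonoidHom.inv_apply, hEx1, hEx1]
    push_cast
    have h1 : ((l₁ y : ℂˣ) : ℂ) ≠ 0 := Units.ne_zero _
    field_simp
  have hμ1 : μ l₁ = μ₁ := by
    funext c
    simp [μ, φ]
  have hval : ∀ l (c : C), (c : G) ^ m = 1 → μ l c = μ₁ c := by
    intro l c hc'
    simp [μ, φ, hEx2 _ c hc']
  have hag : ∀ l l' (x : C), (x : G) ^ m = 1 → μ l x = μ l' x := fun l l' x hx => by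
    rw [hval l x hx, hval l' x hx]
  have hμ10 : ∀ l, μ l 1 ≠ 0 := fun l => map_one_ne_zero_of_irr (hirr l)
  -- two elements of different orbits in Λ₀
  have hne : Λ₀.Nonempty := by
    rw [← Finset.card_pos]
    omega
  obtain ⟨l₂, hl₂⟩ := hne
  obtain ⟨l₃, hl₃, hl₃o⟩ : ∃ l₃ ∈ Λ₀, l₃ ∉ orb l₂ := by
    have h1 : (orb l₂).card < Λ₀.card := by
      have := h.card_orb_le l₂
      omega
    exact Finset.exists_mem_notMem_of_card_lt_card h1
  have hm₂ : ∀ μ' : C → ℂ, IsIrrCharacter C μ' → h.HasType μ' l₂ →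
      classInner (fun c : C => ψ c) μ' = 0 := (hΛ₀ l₂ hl₂).2
  have hm₃ : ∀ μ' : C → ℂ, IsIrrCharacter C μ' → h.HasType μ' l₃ →
      classInner (fun c : C => ψ c) μ' = 0 := (hΛ₀ l₃ hl₃).2
  have hl₂1 := (hΛ₀ l₂ hl₂).1
  have hl₃1 := (hΛ₀ l₃ hl₃).1
  have hR₃₂ : h.R (μ l₃) (μ l₂) = 0 := by
    refine h.R_of_not_rel (hirr _) (hirr _) fun g hg => hl₃o ?_
    exact h.rel_mem_orb (hμ10 _) (htype _) (htype _) hg
  -- constituents only on one orbit
  have hzero : ∀ l, l ≠ 1 → classInner (fun c : C => ψ c) (μ l) ≠ 0 →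
      ∃ g : Subgroup.normalizer (Q : Set G), μ₁ = μ l ∘ h.cjC g := by
    intro l hl hml
    by_contra hcon
    push Not at hcon
    have hR0 : h.R (μ l₁) (μ l) = 0 := by
      rw [hμ1]
      exact h.R_of_not_rel hμ₁ (hirr _) hcon
    refine h.core hψ (hirr l₁) (hirr l₃) (hirr l) (hirr l₂) (htype _) (htype _) (htype _) (htype _)
      hl₁ hl₃1 hl hl₂1 (hag _ _) (hag _ _) (hm₃ _ (hirr _) (htype _)) ?_
      (hm₂ _ (hirr _) (htype _)) hml hR0 hR₃₂
    rw [hμ1]
    exact hm₁
  -- the function Φ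
  let D : (Q →* ℂˣ) → G → ℂ := fun l => indFun C (μ₁ - μ l)
  let Φ : (Q →* ℂˣ) → G → ℂ := fun l => ψ - D l
  have hD_eq : ∀ l, D l = indFun C (μ l₁ - μ l) := by
    intro l
    simp only [D, hμ1]
  have hinnerD : ∀ a b : Q →* ℂˣ, a ≠ 1 → b ≠ 1 →
      classInner (indFun C (μ a - μ b)) (indFun C (μ a - μ b)) =
        2 - h.R (μ a) (μ b) - h.R (μ b) (μ a) := by
    intro a b ha hb
    rw [h.inner_D _ _ _ _ (hag a b), h.R_self (hirr a) (htype a) ha, h.R_self (hirr b) (htype b) hb]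
    ring
  have hΦirr : ∀ l, l ≠ 1 → IsIrrCharacter G (Φ l) := by
    intro l hl
    by_cases hrel : ∃ g, μ₁ = μ l ∘ h.cjC g
    · obtain ⟨g, hg⟩ := hrel
      have hn := hinnerD l₁ l hl₁ hl
      have hR1 : h.R (μ l₁) (μ l) = 1 :=
        h.R_of_rel (hirr l) (htype l) hl (by rw [hμ1]; exact hg)
      have hR2 : h.R (μ l) (μ l₁) = 1 := by
        refine h.R_of_rel (hirr l₁) (htype l₁) hl₁ (g₀ := g⁻¹) ?_
        rw [hμ1, hg]
        exact (h.comp_inv _ g)
      have h0 : D l = 0 := by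
        rw [hD_eq]
        refine classInner_self_eq_zero.mp ?_
        rw [hn, hR1, hR2]
        norm_num
      have h1 : Φ l = ψ := by
        simp only [Φ, h0, sub_zero]
      rw [h1]
      exact hψ
    · have hm0 : classInner (fun c : C => ψ c) (μ l) = 0 := by
        by_contra h'
        exact hrel (hzero l hl h')
      obtain ⟨-, v, hv, hvψ, heq⟩ := h.form hψ (hirr l₁) (hirr l) (htype _) (htype _) hl₁ hl
        (hag _ _) hm0 (by rw [hμ1]; exact hm₁)
      have h1 : Φ l = v := by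
        simp only [Φ, hD_eq, heq, sub_sub_cancel]
      rw [h1]
      exact hv
  -- the function Z
  let ρ₀ : C → ℂ := fun c => (Ex l₂ c : ℂ)
  have hρ₀ : IsIrrCharacter C ρ₀ := isIrrCharacter_of_hom (Ex l₂)
  have htρ₀ : h.HasType ρ₀ l₂ := by
    intro y c
    simp only [ρ₀]
    rw [map_mul, hEx1]
    push_cast
    rfl
  have hmρ₀ := hm₂ ρ₀ hρ₀ htρ₀
  have hρ₀K : ∀ x : C, (x : G) ^ m = 1 → (fun _ : C => (1 : ℂ)) x = ρ₀ x := by
    intro x hx
    simp [ρ₀, hEx2 _ x hx]
  let Z : G → ℂ := indFun C ((fun _ : C => (1 : ℂ)) - ρ₀)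
  have hZZ : classInner Z Z = (e : ℂ) + 1 := by
    simp only [Z]
    rw [h.inner_D _ _ _ _ hρ₀K, h.R_one_one, h.R_left_one hρ₀ htρ₀ hl₂1, h.R_right_one hρ₀ htρ₀ hl₂1,
      h.R_self hρ₀ htρ₀ hl₂1]
    ring
  obtain ⟨n, hn⟩ := classInner_isCharacter_nat hres (IsCharacter.one (G := C))
  have hn' : classInner (fun c : C => ψ c) (fun _ : C => (1 : ℂ)) = (n : ℂ) := hn
  have hn0 : n ≠ 0 := by
    intro h0
    apply hc
    rw [hn', h0]
    simp
  have hψZ : classInner ψ Z = (n : ℂ) := by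
    simp only [Z]
    rw [frobenius_reciprocity' C _ ψ hψc, classInner_sub_right, hmρ₀, sub_zero, hn']
  have hDZ : ∀ l, l ≠ 1 → l ∉ orb l₂ → classInner (D l) Z = 0 := by
    intro l hl hlo
    simp only [D, Z]
    rw [h.inner_D _ _ _ _ (fun x hx => (hval l x hx).symm), h.R_right_one hμ₁ ht₁ hl₁,
      h.R_zero_of_inner_ne hψc hμ₁ hρ₀ (by rw [hmρ₀]; exact hm₁),
      h.R_right_one (hirr l) (htype l) hl,
      h.R_of_not_rel (hirr l) hρ₀ (fun g hg => hlo (h.rel_mem_orb (hμ10 l) (htype l) htρ₀ hg))]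
    ring
  have hΦZ : ∀ l, l ≠ 1 → l ∉ orb l₂ → classInner Z (Φ l) = (n : ℂ) := by
    intro l hl hlo
    rw [← conj_classInner]
    simp only [Φ]
    rw [classInner_sub_left, hψZ, hDZ l hl hlo, sub_zero, Complex.conj_natCast]
  have hZgen : IsGeneralizedCharacter G Z :=
    indFun_isGeneralized C (IsGeneralizedCharacter.sub
      (IsGeneralizedCharacter.of_isCharacter IsCharacter.one)
      (IsGeneralizedCharacter.of_isCharacter (IsIrrCharacter.isCharacter hρ₀)))
  have hZ1 : Z 1 = 0 := by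
    simp only [Z]
    rw [indFun_one]
    have h1 : ((fun _ : C => (1 : ℂ)) - ρ₀) 1 = 0 := by
      simp [ρ₀]
    rw [h1, mul_zero]
  have hone1 : IsClassFunction G (fun _ : G => (1 : ℂ)) := fun _ _ => rfl
  have hZone : classInner Z (fun _ => (1 : ℂ)) = 1 := by
    simp only [Z]
    rw [frobenius_reciprocity C _ _ hone1, classInner_sub_left,
      classInner_irr_of_ne hρ₀ isIrrCharacter_one (h.ne_one_of_type htρ₀ hl₂1)]
    rw [sub_zero]
    exact classInner_irr_self isIrrCharacter_one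
  obtain ⟨ϕ, hϕ, hϕneg⟩ : ∃ ϕ : G → ℂ, IsIrrCharacter G ϕ ∧ (classInner Z ϕ).re < 0 := by
    by_contra hcon
    push Not at hcon
    have h1 := congrFun (classFunction_eq_sum Z (indFun_isClassFunction C _)) 1
    simp only [Finset.sum_apply, Pi.smul_apply, smul_eq_mul] at h1
    rw [hZ1] at h1
    have h2 := congrArg Complex.re h1
    rw [Complex.re_sum] at h2
    have hterm : ∀ χ : IrrCharacter G, 0 ≤ (classInner Z (χ : G → ℂ) * (χ : G → ℂ) 1).re := by
      intro χ
      rw [map_one_eq_charDegree (IsIrrCharacter.isCharacter χ.2), Complex.mul_re]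
      simp only [Complex.natCast_re, Complex.natCast_im, mul_zero, sub_zero]
      exact mul_nonneg (hcon _ χ.2) (Nat.cast_nonneg _)
    have h3 := Finset.single_le_sum (f := fun χ : IrrCharacter G =>
      (classInner Z (χ : G → ℂ) * (χ : G → ℂ) 1).re) (fun χ _ => hterm χ)
      (Finset.mem_univ (⟨fun _ => (1 : ℂ), isIrrCharacter_one⟩ : IrrCharacter G))
    simp only [hZone, mul_one, Complex.one_re] at h3
    rw [← h2] at h3
    simp at h3
    linarith
  -- the orthonormal family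
  let Λ₁ : Finset (Q →* ℂˣ) := Finset.univ \ insert 1 (orb l₂)
  have hΛ₁ : ∀ l ∈ Λ₁, l ≠ 1 ∧ l ∉ orb l₂ := by
    intro l hl
    have h1 := (Finset.mem_sdiff.mp hl).2
    rw [Finset.mem_insert, not_or] at h1
    exact h1
  let W₀ : Finset (G → ℂ) := Λ₁.image Φ
  have hW₀ : ∀ w ∈ W₀, IsIrrCharacter G w ∧ classInner Z w = (n : ℂ) := by
    intro w hw
    obtain ⟨l, hl, rfl⟩ := Finset.mem_image.mp hw
    exact ⟨hΦirr l (hΛ₁ l hl).1, hΦZ l (hΛ₁ l hl).1 (hΛ₁ l hl).2⟩
  have hϕW : ϕ ∉ W₀ := by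
    intro hw
    have h1 := (hW₀ ϕ hw).2
    rw [h1] at hϕneg
    simp at hϕneg
    have h2 : (0 : ℝ) ≤ n := Nat.cast_nonneg n
    linarith
  have hoW : (fun _ : G => (1 : ℂ)) ∉ W₀ := by
    intro hw
    obtain ⟨l, hl, hl2⟩ := Finset.mem_image.mp hw
    have h1 : classInner (fun _ : G => (1 : ℂ)) (Φ l) = 0 := by
      simp only [Φ, D]
      rw [classInner_sub_right, classInner_irr_of_ne isIrrCharacter_one hψ (fun h2 => hψ1 h2.symm),
        frobenius_reciprocity' C _ _ hone1, classInner_sub_right,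
        classInner_irr_of_ne isIrrCharacter_one hμ₁ (h.ne_one_of_type ht₁ hl₁).symm,
        classInner_irr_of_ne isIrrCharacter_one (hirr l) (h.ne_one_of_type (htype l) (hΛ₁ l hl).1).symm]
      ring
    rw [hl2, classInner_irr_self isIrrCharacter_one] at h1
    exact one_ne_zero h1
  have hoϕ : (fun _ : G => (1 : ℂ)) ≠ ϕ := by
    rintro rfl
    rw [hZone] at hϕneg
    simp at hϕneg
    linarith
  let s : Finset (G → ℂ) := insert (fun _ => (1 : ℂ)) (insert ϕ W₀)
  have hscard : s.card = W₀.card + 2 := by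
    simp only [s]
    rw [Finset.card_insert_of_notMem, Finset.card_insert_of_notMem hϕW]
    rw [Finset.mem_insert, not_or]
    exact ⟨hoϕ, hoW⟩
  have hsirr : ∀ w ∈ s, IsIrrCharacter G w := by
    intro w hw
    simp only [s, Finset.mem_insert] at hw
    rcases hw with rfl | rfl | hw
    · exact isIrrCharacter_one
    · exact hϕ
    · exact (hW₀ w hw).1
  have hsnorm : ∀ w ∈ s, (1 : ℝ) ≤ ‖classInner Z w‖ ^ 2 / 1 := by
    intro w hw
    rw [div_one]
    refine one_le_pow₀ ?_
    obtain ⟨k, hk⟩ := classInner_isGeneralized_int hZgen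
      (IsGeneralizedCharacter.of_isCharacter (IsIrrCharacter.isCharacter (hsirr w hw)))
    refine norm_ge_one_of_int hk ?_
    simp only [s, Finset.mem_insert] at hw
    rcases hw with rfl | rfl | hw
    · rw [hZone]
      exact one_ne_zero
    · intro h0
      rw [h0] at hϕneg
      simp at hϕneg
    · rw [(hW₀ w hw).2]
      exact_mod_cast hn0
  have hbes := (bessel s (fun w => w) (fun _ => (1 : ℝ)) (fun _ _ => one_pos)
    (fun i hi j hj hij => classInner_irr_of_ne (hsirr i hi) (hsirr j hj) hij)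
    (fun i hi => by
      rw [classInner_irr_self (hsirr i hi)]
      simp) Z).1
  have hsum : (s.card : ℝ) ≤ ∑ w ∈ s, ‖classInner Z w‖ ^ 2 / 1 := by
    have := Finset.card_nsmul_le_sum s (fun w => ‖classInner Z w‖ ^ 2 / 1) 1 hsnorm
    simpa using this
  have hbound : s.card ≤ e + 1 := by
    have h1 := hsum.trans hbes
    rw [hZZ] at h1
    simp at h1
    exact_mod_cast h1
  -- the lower bound for W₀
  have hfib : ∀ a ∈ Λ₁.image Φ, (Λ₁.filter fun x => Φ x = a).card ≤ e := by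
    intro a ha
    obtain ⟨l', hl', rfl⟩ := Finset.mem_image.mp ha
    refine le_trans (Finset.card_le_card (t := orb l') ?_) (h.card_orb_le l')
    intro x hx
    obtain ⟨hxΛ, hxeq⟩ := Finset.mem_filter.mp hx
    have hDeq : D x = D l' := by
      have h1 : ψ - D x = ψ - D l' := hxeq
      exact sub_right_inj.mp h1
    have h1 : indFun C (μ x - μ l') = 0 := by
      have h2 : μ x - μ l' = (μ₁ - μ l') - (μ₁ - μ x) := by abel
      rw [h2, indFun_sub]
      have h3 : indFun C (μ₁ - μ l') = indFun C (μ₁ - μ x) := hDeq.symm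
      rw [h3, sub_self]
    by_contra hno
    have hn2 := hinnerD x l' (hΛ₁ x hxΛ).1 (hΛ₁ l' hl').1
    rw [h1, classInner_zero_left] at hn2
    have hR1 : h.R (μ x) (μ l') = 0 := h.R_of_not_rel (hirr _) (hirr _) fun g hg =>
      hno (h.rel_mem_orb (hμ10 _) (htype _) (htype _) hg)
    have hR2 : h.R (μ l') (μ x) = 0 := h.R_of_not_rel (hirr _) (hirr _) fun g hg => by
      refine hno (h.rel_mem_orb (g := g⁻¹) (hμ10 _) (htype _) (htype _) ?_)
      rw [hg]
      exact h.comp_inv _ g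
    rw [hR1, hR2] at hn2
    norm_num at hn2
  have hcardle := Finset.card_le_mul_card_image Λ₁ e hfib
  have hΛ₁card : Fintype.card (Q →* ℂˣ) - (e + 1) ≤ Λ₁.card := by
    have h1 := Finset.le_card_sdiff (insert 1 (orb l₂)) (Finset.univ : Finset (Q →* ℂˣ))
    have h2 : (insert 1 (orb l₂) : Finset (Q →* ℂˣ)).card ≤ e + 1 :=
      (Finset.card_insert_le _ _).trans (Nat.add_le_add_right (h.card_orb_le l₂) 1)
    rw [Finset.card_univ] at h1
    change Fintype.card (Q →* ℂˣ) - (e + 1) ≤ (Finset.univ \ insert 1 (orb l₂)).card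
    omega
  have hfinal : W₀.card + 1 ≤ e := by
    rw [hscard] at hbound
    omega
  have h1 : e * W₀.card + e ≤ e * e := by
    calc e * W₀.card + e = e * (W₀.card + 1) := by ring
      _ ≤ e * e := Nat.mul_le_mul_left _ hfinal
  have h2 : Λ₁.card ≤ e * W₀.card := hcardle
  omega

end IsStar

end Cfsg.Agent.Lib.StarSylow
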