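import Mathlib
import Cfsg.Agent.Lib.StarSylow.Key

/-!
# Sylow subgroups all of whose nonidentity elements have the same centralizer: the main theorem.
-/

set_option autoImplicit false

open scoped ComplexConjugate

namespace Cfsg.Agent.Lib.StarSylow

open Cfsg (classInner IsCharacter IsIrrCharacter IsClassFunction IsGeneralizedCharacter
  IrrCharacter indFun extendByZero charDegree)
open Cfsg.Agent.Lib.Char Cfsg.Agent.Lib.Degree Cfsg.Agent.Lib.OddChar

universe u

section Exists

variable {G : Type u} [Group G] [Finite G]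

/-- The situation arises from a Sylow subgroup with the centralizer property. -/
theorem exists_isStar {p : ℕ} [Fact p.Prime] (P : Sylow p G)
    (hstar : ∀ x ∈ (P : Subgroup G), x ≠ 1 → Subgroup.centralizer ({x} : Set G) =
      Subgroup.centralizer ((P : Subgroup G) : Set G))
    (hone : 1 < Nat.card (P : Subgroup G)) :
    IsStar (P : Subgroup G) (Subgroup.centralizer ((P : Subgroup G) : Set G))
      (((P : Subgroup G).subgroupOf (Subgroup.centralizer ((P : Subgroup G) : Set G))).index) := by
  classical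
  set Q : Subgroup G := (P : Subgroup G) with hQ
  set C : Subgroup G := Subgroup.centralizer (Q : Set G) with hC
  have hle : Q ≤ C := by
    intro y hy
    by_cases h1 : y = 1
    · subst h1
      exact C.one_mem
    · rw [← hstar y hy h1]
      exact Subgroup.mem_centralizer_singleton_iff.mpr rfl
  have hcent : ∀ y ∈ Q, y ≠ 1 → ∀ g : G, g * y = y * g → g ∈ C := by
    intro y hy h1 g hg
    rw [← hstar y hy h1]
    exact Subgroup.mem_centralizer_singleton_iff.mpr hg
  have hcomm : ∀ y ∈ Q, ∀ c ∈ C, y * c = c * y := by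
    intro y hy c hc
    rw [hC, Subgroup.mem_centralizer_iff] at hc
    exact hc y hy
  set Q' : Subgroup C := Q.subgroupOf C with hQ'
  set m := Q'.index with hm
  have hkey : ∀ (g : C) (k : ℕ) (g₀ : C), g₀⁻¹ * g ^ k * g₀ ∈ Q' → g₀⁻¹ * g ^ k * g₀ = g ^ k := by
    intro g k g₀ hw
    have h1 : (g₀⁻¹ * g ^ k * g₀ : C).1 ∈ Q := Subgroup.mem_subgroupOf.mp hw
    have h2 := hcomm _ h1 g₀.1 g₀.2
    apply Subtype.ext
    have h3 : ((g ^ k : C) : G) = g₀.1 * (g₀⁻¹ * g ^ k * g₀ : C).1 * g₀.1⁻¹ := by
      push_cast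
      group
    rw [h3, ← h2]
    group
  have hpow : ∀ c ∈ C, c ^ m ∈ Q := by
    intro c hc
    have h1 := MonoidHom.transfer_eq_pow_aux (H := Q') (⟨c, hc⟩ : C) (hkey ⟨c, hc⟩)
    have h2 := Subgroup.mem_subgroupOf.mp h1
    simpa using h2
  have hcop : Nat.Coprime m (Nat.card Q) := by
    have h1 : m ∣ Q.index := by
      rw [← Subgroup.relIndex_mul_index hle]
      exact dvd_mul_right _ _
    exact Nat.Coprime.coprime_dvd_left h1 (P.card_coprime_index).symm
  obtain ⟨u, hu⟩ := Nat.exists_mul_mod_eq_one_of_coprime hcop hone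
  have hpowu : ∀ w : G, w ^ Nat.card Q = 1 → (w ^ m) ^ u = w := by
    intro w hw
    rw [← pow_mul, pow_eq_pow_mod _ hw, hu.2, pow_one]
  have hQpow : ∀ z ∈ Q, z ^ Nat.card Q = 1 := by
    intro z hz
    have h1 : (⟨z, hz⟩ : Q) ^ Nat.card Q = 1 := pow_card_eq_one'
    have h2 := congrArg Subtype.val h1
    simpa only [Subgroup.coe_pow, Subgroup.coe_one] using h2
  refine ⟨rfl, hle, hpow, hcent, ?_, ?_⟩
  · -- trivial intersection
    intro g y hy hy1 hgy
    have hy' : g⁻¹ * y * g ≠ 1 := by
      intro h0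
      apply hy1
      have h1 : y = g * (g⁻¹ * y * g) * g⁻¹ := by group
      rw [h1, h0]
      group
    have hfor : ∀ z ∈ Q, g * z * g⁻¹ ∈ Q := by
      intro z hz
      have h1 : z * (g⁻¹ * y * g) = (g⁻¹ * y * g) * z := by
        have h2 := hcomm _ hgy _ (hle hz)
        exact h2.symm
      have h2 : g * z * g⁻¹ ∈ C := by
        refine hcent y hy hy1 _ ?_
        have h3 : y = g * (g⁻¹ * y * g) * g⁻¹ := by group
        calc g * z * g⁻¹ * y = g * (z * (g⁻¹ * y * g)) * g⁻¹ := by group
          _ = g * ((g⁻¹ * y * g) * z) * g⁻¹ := by rw [h1]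
          _ = y * (g * z * g⁻¹) := by group
      have h3 : (g * z * g⁻¹) ^ Nat.card Q = 1 := by
        rw [conj_pow, hQpow z hz]
        group
      rw [← hpowu _ h3]
      exact Q.pow_mem (hpow _ h2) u
    refine Subgroup.mem_set_normalizer_iff.mpr fun z => ⟨hfor z, fun hz => ?_⟩
    let t : Q → Q := fun w => ⟨g * w * g⁻¹, hfor w w.2⟩
    have htinj : Function.Injective t := by
      intro a b hab
      have h1 := congrArg Subtype.val hab
      simp only [t] at h1
      apply Subtype.ext
      have h2 : g * (a : G) = g * b := mul_right_cancel h1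
      exact mul_left_cancel h2
    obtain ⟨w, hw⟩ := (Finite.injective_iff_surjective.mp htinj) ⟨g * z * g⁻¹, hz⟩
    have h1 := congrArg Subtype.val hw
    simp only [t] at h1
    have h2 : g * (w : G) = g * z := mul_right_cancel h1
    have h3 := mul_left_cancel h2
    rw [← h3]
    exact w.2
  · -- extension of linear characters
    intro lam
    let ϕ : Q' →* ℂˣ := lam.comp (Subgroup.subgroupOfEquivOfLe hle).toMonoidHom
    let T : C →* ℂˣ := ϕ.transfer
    have hT : ∀ c : C, T c = ϕ ⟨c ^ m, MonoidHom.transfer_eq_pow_aux c (hkey c)⟩ := fun c =>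
      MonoidHom.transfer_eq_pow ϕ c (hkey c)
    refine ⟨T ^ u, ?_, ?_⟩
    · intro y
      rw [MonoidHom.pow_apply, hT]
      simp only [ϕ, MonoidHom.comp_apply]
      rw [← map_pow]
      congr 1
      apply Subtype.ext
      exact hpowu y (hQpow y y.2)
    · intro c hc
      rw [MonoidHom.pow_apply, hT]
      have h1 : (⟨c ^ m, MonoidHom.transfer_eq_pow_aux c (hkey c)⟩ : Q') = 1 := by
        apply Subtype.ext
        apply Subtype.ext
        simpa using hc
      rw [h1, map_one, one_pow]

end Exists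

section Abelian

variable {A : Type u} [Group A] [Fintype A]

/-- A linear character as a function. -/
def lc (l : A →* ℂˣ) : A → ℂ := fun y => (l y : ℂ)

theorem lc_isIrr (l : A →* ℂˣ) : IsIrrCharacter A (lc l) := isIrrCharacter_of_hom l

theorem lc_one (l : A →* ℂˣ) : lc l 1 = 1 := by simp [lc]

/-- Linear characters are the irreducible characters. -/
noncomputable def homEquiv (hA : ∀ a b : A, a * b = b * a) : (A →* ℂˣ) ≃ IrrCharacter A :=
  Equiv.ofBijective (fun l => ⟨lc l, lc_isIrr l⟩) (by
    constructor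
    · intro a b hab
      have h1 : lc a = lc b := congrArg Subtype.val hab
      ext y
      exact congrFun h1 y
    · intro χ
      obtain ⟨l, hl⟩ := exists_hom_of_character_one (IsIrrCharacter.isCharacter χ.2)
        (charDegree_eq_one_of_comm hA χ.2)
      exact ⟨l, Subtype.ext hl.symm⟩)

theorem homEquiv_coe (hA : ∀ a b : A, a * b = b * a) (l : A →* ℂˣ) :
    ((homEquiv hA l : IrrCharacter A) : A → ℂ) = lc l := rfl

theorem eval_one_eq_sum [Fintype (A →* ℂˣ)] (hA : ∀ a b : A, a * b = b * a) {β : A → ℂ}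
    (hβ : IsClassFunction A β) : β 1 = ∑ l : A →* ℂˣ, classInner β (lc l) := by
  have h1 := congrFun (classFunction_eq_sum β hβ) 1
  simp only [Finset.sum_apply, Pi.smul_apply, smul_eq_mul] at h1
  rw [h1, ← Equiv.sum_comp (homEquiv hA)]
  refine Finset.sum_congr rfl fun l _ => ?_
  rw [homEquiv_coe, lc_one, mul_one]

theorem inner_eq_sum_hom [Fintype (A →* ℂˣ)] (hA : ∀ a b : A, a * b = b * a) {β β' : A → ℂ}
    (hβ : IsClassFunction A β) (hβ' : IsClassFunction A β') :
    classInner β β' = ∑ l : A →* ℂˣ, classInner β (lc l) * conj (classInner β' (lc l)) := by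
  rw [classInner_eq_sum β β' hβ hβ', ← Equiv.sum_comp (homEquiv hA)]
  rfl

theorem card_hom [Fintype (A →* ℂˣ)] (hA : ∀ a b : A, a * b = b * a) :
    Fintype.card (A →* ℂˣ) = Nat.card A := by
  have h1 := sum_degree_sq (G := A)
  rw [← Equiv.sum_comp (homEquiv hA)] at h1
  simp only [homEquiv_coe, lc_one, one_pow, Finset.sum_const, Finset.card_univ, nsmul_eq_mul, mul_one] at h1
  exact_mod_cast h1

theorem finite_hom [Finite A] : Finite (A →* ℂˣ) := by
  have := irrCharacter_finite (G := A)
  exact Finite.of_equiv _ (linearEquivHom A)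

end Abelian

end Cfsg.Agent.Lib.StarSylow
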