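import Mathlib
import Cfsg.Agent.Lib.StarSylow.Main

/-!
# Sylow subgroups all of whose nonidentity elements have the same centralizer: the main theorem.
-/

set_option autoImplicit false

open scoped ComplexConjugate

namespace Cfsg.Agent.Lib.StarSylow

open Cfsg (classInner IsCharacter IsIrrCharacter IsClassFunction IsGeneralizedCharacter
  IrrCharacter indFun extendByZero charDegree)
open Cfsg.Agent.Lib.Char Cfsg.Agent.Lib.Degree Cfsg.Agent.Lib.OddChar

universe u

variable {G : Type u} [Group G] [Fintype G] {Q C : Subgroup G} {m : ℕ} (h : IsStar Q C m)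

section Nat

variable {A : Type u} [Group A] [Fintype A]

theorem inner_add_ne_zero {β δ φ : A → ℂ} (hβ : IsCharacter A β) (hδ : IsCharacter A δ)
    (hφ : IsCharacter A φ) (hne : classInner β φ ≠ 0) : classInner (β + δ) φ ≠ 0 := by
  obtain ⟨a, ha⟩ := classInner_isCharacter_nat hβ hφ
  obtain ⟨b, hb⟩ := classInner_isCharacter_nat hδ hφ
  have ha' : classInner β φ = (a : ℂ) := ha
  have hb' : classInner δ φ = (b : ℂ) := hb
  rw [classInner_add_left, ha', hb']
  rw [ha'] at hne
  have ha0 : a ≠ 0 := fun h0 => hne (by rw [h0]; simp)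
  exact_mod_cast (by omega : a + b ≠ 0)

end Nat

namespace IsStar

include h

/-- Constituents pass from `C` to `Q`. -/
theorem inner_Q_ne_zero [Fintype C] [Fintype Q] {β : C → ℂ} (hβ : IsCharacter C β) {μ : C → ℂ}
    (hμ : IsIrrCharacter C μ) {l : Q →* ℂˣ} (ht : h.HasType μ l) (hne : classInner β μ ≠ 0) :
    classInner (fun y : Q => β (Subgroup.inclusion h.hle y)) (lc l) ≠ 0 := by
  have hμc := IsIrrCharacter.isCharacter hμ
  have h1 : IsCharacter Q (fun y : Q => (β - μ) (Subgroup.inclusion h.hle y)) :=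
    IsCharacter.comp (Subgroup.inclusion h.hle) (isCharacter_sub_of_constituent hβ hμ hne)
  have h2 : IsCharacter Q (fun y : Q => μ (Subgroup.inclusion h.hle y)) :=
    IsCharacter.comp (Subgroup.inclusion h.hle) hμc
  have h3 : (fun y : Q => β (Subgroup.inclusion h.hle y)) =
      (fun y : Q => μ (Subgroup.inclusion h.hle y)) + (fun y : Q => (β - μ) (Subgroup.inclusion h.hle y)) := by
    funext y
    simp
  rw [h3]
  refine inner_add_ne_zero h2 h1 (IsIrrCharacter.isCharacter (lc_isIrr l)) ?_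
  have h4 : (fun y : Q => μ (Subgroup.inclusion h.hle y)) = (μ 1) • lc l := by
    funext y
    rw [h.type_apply ht y]
    simp [lc, mul_comm]
  rw [h4, classInner_smul_left, classInner_irr_self (lc_isIrr l), mul_one]
  exact map_one_ne_zero_of_irr hμ

/-- Nonprincipal irreducible characters have a constituent of nontrivial type on `C`. -/
theorem exists_type [Fintype C] (hmax : ∀ K : Subgroup G, K.Normal → Q ≤ K → K = ⊤) {ψ : G → ℂ}
    (hψ : IsIrrCharacter G ψ) (hψ1 : ψ ≠ fun _ => 1) :
    ∃ (μ : C → ℂ) (l : Q →* ℂˣ), IsIrrCharacter C μ ∧ h.HasType μ l ∧ l ≠ 1 ∧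
      classInner (fun c : C => ψ c) μ ≠ 0 := by
  classical
  by_contra hcon
  push Not at hcon
  have hψc := IsCharacter.isClassFunction (IsIrrCharacter.isCharacter hψ)
  have hres := IsCharacter.restrict C (IsIrrCharacter.isCharacter hψ)
  have hy : ∀ y : Q, ψ y = ψ 1 := by
    intro y
    have hcl := IsCharacter.isClassFunction hres
    have h1 := congrFun (classFunction_eq_sum (fun c : C => ψ c) hcl) (Subgroup.inclusion h.hle y)
    have h2 := congrFun (classFunction_eq_sum (fun c : C => ψ c) hcl) 1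
    simp only [Finset.sum_apply, Pi.smul_apply, smul_eq_mul] at h1 h2
    have h3 : ψ y = ψ ((Subgroup.inclusion h.hle y : C) : G) := rfl
    have h4 : ψ 1 = ψ ((1 : C) : G) := rfl
    rw [h3, h4, h1, h2]
    refine Finset.sum_congr rfl fun ω _ => ?_
    obtain ⟨l, hl⟩ := h.central_type ω.2
    by_cases hl1 : l = 1
    · subst hl1
      rw [h.type_apply hl y]
      simp
    · rw [hcon _ l ω.2 hl hl1]
      simp
  obtain ⟨n, ρ, hρ, rfl⟩ := hψ
  have hker : Q ≤ MonoidHom.ker ρ := by
    intro y hy'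
    rw [MonoidHom.mem_ker]
    have h1 := hy ⟨y, hy'⟩
    rw [Representation.char_one] at h1
    exact (character_eq_finrank_iff ρ y (isOfFinOrder_of_finite y)).mp h1
  have htop := hmax _ (MonoidHom.normal_ker ρ) hker
  apply hψ1
  refine irr_trivial_of_ker_top ρ hρ fun g => ?_
  have h1 : g ∈ MonoidHom.ker ρ := by
    rw [htop]
    trivial
  exact MonoidHom.mem_ker.mp h1

/-- Scalars on `Q` force degree one. -/
theorem degree_one_of_norm (hmax : ∀ K : Subgroup G, K.Normal → Q ≤ K → K = ⊤) {χ : G → ℂ}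
    (hχ : IsIrrCharacter G χ) (hnorm : ∀ y : Q, ‖χ y‖ = ‖χ 1‖) : charDegree χ = 1 := by
  obtain ⟨n, ρ, hρ, rfl⟩ := hχ
  have hle : Q ≤ scalarSubgroup ρ := by
    intro y hy
    have h1 := hnorm ⟨y, hy⟩
    have h2 : ‖ρ.character 1‖ = ((Module.finrank ℂ (Fin n → ℂ) : ℕ) : ℝ) := by
      rw [Representation.char_one]
      simp
    rw [h2] at h1
    obtain ⟨ω, hω⟩ := (norm_character_eq_iff ρ y (isOfFinOrder_of_finite y)).mp h1
    exact mem_scalarSubgroup_of_smul ρ y ω hω
  have htop := hmax _ inferInstance hle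
  have h1 := finrank_eq_one_of_scalarSubgroup_eq_top ρ hρ htop
  apply charDegree_natCast (n := 1)
  rw [Representation.char_one, h1]

/-- The main theorem. -/
theorem main (hmax : ∀ K : Subgroup G, K.Normal → Q ≤ K → K = ⊤) {χ : G → ℂ}
    (hχ : IsIrrCharacter G χ) (hχ1 : χ ≠ fun _ => 1) (hdeg : charDegree χ ^ 2 + 1 < Nat.card Q) :
    charDegree χ = 1 ∧ Subgroup.normalizer (Q : Set G) ≤ C := by
  classical
  letI : Fintype C := Fintype.ofFinite _
  letI : Fintype Q := Fintype.ofFinite _
  letI : Fintype (Subgroup.normalizer (Q : Set G)) := Fintype.ofFinite _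
  haveI : Finite (Q →* ℂˣ) := finite_hom
  letI : Fintype (Q →* ℂˣ) := Fintype.ofFinite _
  set e := (C.subgroupOf (Subgroup.normalizer (Q : Set G))).index with he
  have hQcomm := h.comm_Q
  have hqcard : Fintype.card (Q →* ℂˣ) = Nat.card Q := card_hom hQcomm
  have hχch := IsIrrCharacter.isCharacter hχ
  have hχc := IsCharacter.isClassFunction hχch
  have hclQ : ∀ {β : Q → ℂ}, IsCharacter Q β → IsClassFunction Q β := fun hb =>
    IsCharacter.isClassFunction hb
  obtain ⟨μχ, lχ, hμχ, htχ, hlχ, hmχ⟩ := h.exists_type hmax hχ hχ1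
  -- the multiplicities of the linear characters of `Q` in the restriction of `χ`
  have hχQ : IsCharacter Q (fun y : Q => χ y) := IsCharacter.restrict Q hχch
  choose mq hmq using fun l : Q →* ℂˣ => classInner_isCharacter_nat hχQ
    (IsIrrCharacter.isCharacter (lc_isIrr l))
  have hmq' : ∀ l, classInner (fun y : Q => χ y) (lc l) = (mq l : ℂ) := hmq
  have hxsum : charDegree χ = ∑ l, mq l := by
    have h1 := eval_one_eq_sum hQcomm (hclQ hχQ)
    simp only [hmq'] at h1
    have h2 : χ ((1 : Q) : G) = (charDegree χ : ℂ) := map_one_eq_charDegree hχch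
    rw [h2] at h1
    exact_mod_cast h1
  have horb : ∀ l ∈ orb lχ, mq l ≠ 0 := by
    intro l hl
    have hl' : ∃ g : Subgroup.normalizer (Q : Set G), l = lχ.comp (cjQ g).toMonoidHom := mem_orb.mp hl
    obtain ⟨g, rfl⟩ := hl'
    have h1 := h.inner_Q_ne_zero (IsCharacter.restrict C hχch) (h.isIrr_comp hμχ g) (h.type_conj htχ g)
      (by rw [h.inner_res_comp hχc]; exact hmχ)
    intro h0
    apply h1
    have h2 := hmq' (lχ.comp (cjQ g).toMonoidHom)
    rw [h0] at h2
    simpa using h2
  have hcardorb : (orb lχ).card = e := h.card_orb_eq hlχ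
  have hex : e ≤ charDegree χ := by
    rw [hxsum, ← hcardorb, Finset.card_eq_sum_ones]
    calc ∑ l ∈ orb lχ, 1 ≤ ∑ l ∈ orb lχ, mq l :=
          Finset.sum_le_sum fun l hl => Nat.one_le_iff_ne_zero.mpr (horb l hl)
      _ ≤ ∑ l, mq l := Finset.sum_le_sum_of_subset (Finset.subset_univ _)
  -- the norm on `Q`
  have hA : classInner (fun y : Q => χ y) (fun y : Q => χ y) = ((∑ l, mq l ^ 2 : ℕ) : ℂ) := by
    rw [inner_eq_sum_hom hQcomm (hclQ hχQ) (hclQ hχQ)]
    simp only [hmq', Complex.conj_natCast]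
    push_cast
    refine Finset.sum_congr rfl fun l _ => ?_
    ring
  have hAe : e ≤ ∑ l, mq l ^ 2 := by
    rw [← hcardorb, Finset.card_eq_sum_ones]
    calc ∑ l ∈ orb lχ, 1 ≤ ∑ l ∈ orb lχ, mq l ^ 2 :=
          Finset.sum_le_sum fun l hl => Nat.one_le_pow _ _ (Nat.pos_of_ne_zero (horb l hl))
      _ ≤ ∑ l, mq l ^ 2 := Finset.sum_le_sum_of_subset (Finset.subset_univ _)
  -- the product `σ`
  let σ : G → ℂ := fun g => χ g * conj (χ g)
  have hσ : IsCharacter G σ := IsCharacter.mul hχch (IsCharacter.conj_char hχch)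
  have hσQ : IsCharacter Q (fun y : Q => σ y) := IsCharacter.restrict Q hσ
  choose sn hsn using fun l : Q →* ℂˣ => classInner_isCharacter_nat hσQ
    (IsIrrCharacter.isCharacter (lc_isIrr l))
  have hsn' : ∀ l, classInner (fun y : Q => σ y) (lc l) = (sn l : ℂ) := hsn
  have hxx : charDegree χ ^ 2 = ∑ l, sn l := by
    have h1 := eval_one_eq_sum hQcomm (hclQ hσQ)
    simp only [hsn'] at h1
    have h2 : σ ((1 : Q) : G) = ((charDegree χ ^ 2 : ℕ) : ℂ) := by
      have h3 : χ ((1 : Q) : G) = (charDegree χ : ℂ) := map_one_eq_charDegree hχch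
      simp only [σ]
      rw [h3, Complex.conj_natCast]
      push_cast
      ring
    rw [h2] at h1
    exact_mod_cast h1
  have hsn1 : sn 1 = ∑ l, mq l ^ 2 := by
    have h1 : classInner (fun y : Q => σ y) (lc 1) = classInner (fun y : Q => χ y) (fun y : Q => χ y) := by
      simp only [classInner_def, lc, σ, MonoidHom.one_apply, Units.val_one, map_one, mul_one]
    rw [hsn', hA] at h1
    exact_mod_cast h1
  -- the missing characters
  let E1 : Finset (Q →* ℂˣ) := Finset.univ.erase 1
  let Λ₀ : Finset (Q →* ℂˣ) := E1.filter fun l => sn l = 0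
  let Λp : Finset (Q →* ℂˣ) := E1.filter fun l => ¬ sn l = 0
  have hpart : Λ₀.card + Λp.card = E1.card := Finset.card_filter_add_card_filter_not _
  have hE1 : E1.card + 1 = Fintype.card (Q →* ℂˣ) := by
    simp only [E1]
    rw [Finset.card_erase_of_mem (Finset.mem_univ _), Finset.card_univ]
    have : 0 < Fintype.card (Q →* ℂˣ) := Fintype.card_pos
    omega
  have hΛp : e + Λp.card ≤ charDegree χ ^ 2 := by
    rw [hxx, ← Finset.add_sum_erase _ _ (Finset.mem_univ (1 : Q →* ℂˣ)), hsn1]
    refine Nat.add_le_add hAe ?_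
    rw [Finset.card_eq_sum_ones]
    calc ∑ l ∈ Λp, 1 ≤ ∑ l ∈ Λp, sn l := Finset.sum_le_sum fun l hl =>
          Nat.one_le_iff_ne_zero.mpr (Finset.mem_filter.mp hl).2
      _ ≤ ∑ l ∈ Finset.univ.erase 1, sn l := Finset.sum_le_sum_of_subset (Finset.filter_subset _ _)
  have hΛ₀card : e + 1 ≤ Λ₀.card := by
    rw [hqcard] at hE1
    omega
  have hq : e * e + 1 < Fintype.card (Q →* ℂˣ) := by
    rw [hqcard]
    have h1 : e * e ≤ charDegree χ ^ 2 := by
      rw [sq]
      exact Nat.mul_le_mul hex hex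
    omega
  -- the key lemma for the constituents of `σ`
  have hkey : ∀ ψ : G → ℂ, IsIrrCharacter G ψ → ψ ≠ (fun _ => 1) → classInner σ ψ ≠ 0 →
      classInner (fun c : C => ψ c) (fun _ => (1 : ℂ)) = 0 := by
    intro ψ hψ hψ1 hσψ
    obtain ⟨μ₁, l₁, hμ₁, ht₁, hl₁, hm₁⟩ := h.exists_type hmax hψ hψ1
    refine h.key hψ hψ1 (Λ₀ := Λ₀) ?_ hΛ₀card hq hμ₁ ht₁ hl₁ hm₁
    intro l hl
    obtain ⟨hlE, hl0⟩ := Finset.mem_filter.mp hl
    refine ⟨(Finset.mem_erase.mp hlE).1, fun μ hμ ht => ?_⟩
    by_contra hne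
    have h1 := h.inner_Q_ne_zero (IsCharacter.restrict C (IsIrrCharacter.isCharacter hψ)) hμ ht hne
    have h2 : IsCharacter G (σ - ψ) := isCharacter_sub_of_constituent hσ hψ hσψ
    have h3 : (fun y : Q => σ y) = (fun y : Q => ψ y) + (fun y : Q => (σ - ψ) y) := by
      funext y
      simp
    have h4 : classInner (fun y : Q => σ y) (lc l) ≠ 0 := by
      rw [h3]
      exact inner_add_ne_zero (IsCharacter.restrict Q (IsIrrCharacter.isCharacter hψ))
        (IsCharacter.restrict Q h2) (IsIrrCharacter.isCharacter (lc_isIrr l)) h1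
    rw [hsn', hl0] at h4
    simp at h4
  -- the norm on `C`
  have hone1 : IsClassFunction G (fun _ : G => (1 : ℂ)) := fun _ _ => rfl
  have hnormC : classInner (fun c : C => χ c) (fun c : C => χ c) = 1 := by
    have h1 : classInner (fun c : C => χ c) (fun c : C => χ c) =
        classInner (fun c : C => σ c) (fun _ : C => (1 : ℂ)) := by
      simp only [classInner_def, σ, map_one, mul_one]
    rw [h1, ← frobenius_reciprocity' C _ σ (IsCharacter.isClassFunction hσ),
      classInner_eq_sum σ _ (IsCharacter.isClassFunction hσ) (indFun_isClassFunction C _)]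
    rw [Finset.sum_eq_single (⟨fun _ => (1 : ℂ), isIrrCharacter_one⟩ : IrrCharacter G)]
    · have h2 : classInner σ (fun _ => (1 : ℂ)) = classInner χ χ := by
        simp only [classInner_def, σ, map_one, mul_one]
      simp only
      rw [h2, classInner_irr_self hχ, frobenius_reciprocity C _ _ hone1,
        classInner_irr_self isIrrCharacter_one]
      simp
    · intro ψ _ hne
      have hψ1 : (ψ : G → ℂ) ≠ fun _ => (1 : ℂ) := fun h0 => hne (Subtype.ext h0)
      by_cases hσψ : classInner σ (ψ : G → ℂ) = 0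
      · rw [hσψ, zero_mul]
      · have h2 := hkey ψ ψ.2 hψ1 hσψ
        have h3 : classInner (fun _ : C => (1 : ℂ)) (fun h : C => (ψ : G → ℂ) h) =
            conj (classInner (fun c : C => (ψ : G → ℂ) c) fun _ => (1 : ℂ)) := (conj_classInner _ _).symm
        rw [frobenius_reciprocity C _ _ (IsCharacter.isClassFunction (IsIrrCharacter.isCharacter ψ.2)),
          h3, h2]
        simp
    · intro h0
      exact absurd (Finset.mem_univ _) h0
  have hχCirr : IsIrrCharacter C (fun c : C => χ c) :=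
    isIrr_of_character_norm_one (IsCharacter.restrict C hχch) hnormC
  obtain ⟨lC, htC⟩ := h.central_type hχCirr
  have hC1 : (fun c : C => χ c) 1 ≠ 0 := map_one_ne_zero_of_irr (χ := fun c : C => χ c) hχCirr
  have hμeq : (fun c : C => χ c) = μχ := by
    by_contra hne
    exact hmχ (classInner_irr_of_ne hχCirr hμχ hne)
  have hlC : lC ≠ 1 := by
    have h1 : lC = lχ := by
      refine h.type_unique htC ?_ hC1
      rw [hμeq]
      exact htχ
    rw [h1]
    exact hlχ
  refine ⟨h.degree_one_of_norm hmax hχ ?_, ?_⟩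
  · intro y
    have h1 := h.type_apply htC y
    have h2 : χ (y : G) = (lC y : ℂ) * χ ((1 : C) : G) := h1
    have h3 : χ ((1 : C) : G) = χ 1 := rfl
    rw [h2, h3, norm_mul, norm_hom_eq_one, one_mul]
  · intro g hg
    exact h.mem_C_of_type_fix (g := ⟨g, hg⟩) htC hC1 hlC (h.res_comp hχc _)

end IsStar

end Cfsg.Agent.Lib.StarSylow
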